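import Cfsg.Agent.Lib.Helper5.SUAsch.Defs2

/-! # Small unitary rows: definitions for the pieces E5 (SU_5(2)) and E6c (SU_6(2)) -/

set_option autoImplicit false

namespace Cfsg.Agent.Lib.Helper13.SUSmall

open Cfsg Cfsg.Geo Matrix Cfsg.Agent.Lib.Helper5.SUAsch
open scoped MatrixGroups

variable {F : Type*} [Field F]

/-- the invariant set of `L_2(11)` in `SU_5(2)`: 198 vectors (`l` of order 11) -/
def cond5 (ω : F) (l : GL (Fin 5) F) (x : Fin 5 → F) : Prop :=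
  hermForm 5 F 2 x x = 1 ∧ ∀ j ∈ ({1, 3, 4, 5, 9} : Finset ℕ),
    hermForm 5 F 2 (((l ^ j : GL (Fin 5) F) : Matrix (Fin 5) (Fin 5) F) *ᵥ x) x ≠ ω

/-- the factor `x^5 + ω^2 x^4 + x^3 + x^2 + ω x + 1` of the 11-th cyclotomic polynomial -/
def m1five (ω : F) (X : Matrix (Fin 5) (Fin 5) F) : Matrix (Fin 5) (Fin 5) F :=
  X ^ 5 + ω ^ 2 • X ^ 4 + X ^ 3 + X ^ 2 + ω • X + 1

/-- two copies of the companion matrix of `x^3 - ω` -/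
def lam6 (ω : F) : Matrix (Fin 6) (Fin 6) F :=
  !![0, 0, ω, 0, 0, 0;
     1, 0, 0, 0, 0, 0;
     0, 1, 0, 0, 0, 0;
     0, 0, 0, 0, 0, ω;
     0, 0, 0, 1, 0, 0;
     0, 0, 0, 0, 1, 0]

/-- the alternating form -/
def B6 (ω : F) : Matrix (Fin 6) (Fin 6) F :=
  !![0, 0, 0, 1, 0, 0;
     0, 0, 0, 0, 0, ω;
     0, 0, 0, 0, ω, 0;
     1, 0, 0, 0, 0, 0;
     0, 0, ω, 0, 0, 0;
     0, ω, 0, 0, 0, 0]

/-- `d0 + d1 λ + d2 λ^2` -/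
def pol6 (ω d0 d1 d2 : F) : Matrix (Fin 6) (Fin 6) F :=
  d0 • (1 : Matrix (Fin 6) (Fin 6) F) + d1 • lam6 ω + d2 • (lam6 ω) ^ 2

end Cfsg.Agent.Lib.Helper13.SUSmall
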