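import Cfsg.Agent.Lib.Helper5.SUAsch.Defs2

/-! # Small unitary rows: definitions for the piece E3a (SU_3(3)) -/

set_option autoImplicit false

namespace Cfsg.Agent.Lib.Helper13.SUSmall

open Cfsg Cfsg.Geo Matrix Cfsg.Agent.Lib.Helper5.SUAsch
open scoped MatrixGroups

variable {F : Type*} [Field F]

/-- the invariant set of `L_2(7)` in `SU_3(3)`: 84 vectors (`l` of order 7) -/
def cond3 (l : GL (Fin 3) F) (x : Fin 3 → F) : Prop :=
  hermForm 3 F 3 x x = 1 ∧ ∃ j ∈ ({1, 2, 4} : Finset ℕ),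
    hermForm 3 F 3 (((l ^ j : GL (Fin 3) F) : Matrix (Fin 3) (Fin 3) F) *ᵥ x) x = 1

end Cfsg.Agent.Lib.Helper13.SUSmall
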