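import Cfsg.Agent.Lib.Helper5.SUAsch.Defs2

/-! # Small unitary rows: definitions for the piece E3c (SU_3(5)) -/

set_option autoImplicit false

namespace Cfsg.Agent.Lib.Helper13.SUSmall

open Cfsg Cfsg.Geo Matrix Cfsg.Agent.Lib.Helper5.SUAsch
open scoped MatrixGroups

variable {F : Type*} [Field F]

/-- the determinant of three vectors -/
def det3 (x y z : Fin 3 → F) : F := (Matrix.of ![x, y, z]).det

/-- the five admissible pairs (`t ^ 2 = 2`) -/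
def pairs35 (t : F) : List (F × F) := [(0, -1), (2, 1 + t), (2, 1 - t), (3, 3), (2 + t, 1)]

/-- the invariant set of `3.A_7` in `SU_3(5)`: 105 points (`l` of order 7, `t ^ 2 = 2`) -/
def cond35 (t : F) (l : GL (Fin 3) F) (x : Fin 3 → F) : Prop :=
  hermForm 3 F 5 x x ≠ 0 ∧ ∃ j ∈ ({1, 2, 4} : Finset ℕ), ∃ p ∈ pairs35 t,
    hermForm 3 F 5 (((l ^ j : GL (Fin 3) F) : Matrix (Fin 3) (Fin 3) F) *ᵥ x) x =
      p.1 * hermForm 3 F 5 x x ∧
    (det3 x (((l ^ j : GL (Fin 3) F) : Matrix (Fin 3) (Fin 3) F) *ᵥ x)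
      (((l ^ (2 * j) : GL (Fin 3) F) : Matrix (Fin 3) (Fin 3) F) *ᵥ x)) ^ 2 =
      p.2 * hermForm 3 F 5 x x

end Cfsg.Agent.Lib.Helper13.SUSmall
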