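import Cfsg.Agent.Lib.Helper13.SUSmall.Defs5

/-! # Small unitary rows: definitions for the piece E3d (3^(1+2):Q8 in SU_3(5)) -/

set_option autoImplicit false

namespace Cfsg.Agent.Lib.Helper13.SUSmall

open Cfsg Cfsg.Geo Matrix Cfsg.Agent.Lib.Helper5.SUAsch
open scoped MatrixGroups

variable {F : Type*} [Field F]

/-- the cubic form `det [x, r x, r^2 x]` -/
def cub3 (r : Matrix (Fin 3) (Fin 3) F) (x : Fin 3 → F) : F := det3 x (r *ᵥ x) (r *ᵥ (r *ᵥ x))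

/-- the invariant set of `3.M_10` in `SU_3(5)`: 45 points -/
def condR (R : Subgroup (GL (Fin 3) F)) (x : Fin 3 → F) : Prop :=
  hermForm 3 F 5 x x ≠ 0 ∧ ∀ r ∈ R, (cub3 (r : Matrix (Fin 3) (Fin 3) F) x) ^ 10 =
    (cub3 (r : Matrix (Fin 3) (Fin 3) F) x) ^ 2

/-- the cyclic permutation matrix -/
def X3 : Matrix (Fin 3) (Fin 3) F := !![0, 0, 1; 1, 0, 0; 0, 1, 0]

/-- the clock matrix -/
def Z3 (ω : F) : Matrix (Fin 3) (Fin 3) F := !![1, 0, 0; 0, ω, 0; 0, 0, ω ^ 2]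

end Cfsg.Agent.Lib.Helper13.SUSmall
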