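import Cfsg.Agent.Lib.Helper13.SUSmall.Defs
import Cfsg.Agent.Lib.Helper62.SUSmall.Gram
import Cfsg.Agent.Lib.Helper5.SUAsch.Bridge
import Cfsg.Agent.Lib.Helper60.SUSmall.E6cL
import Cfsg.Agent.Lib.Helper5.SUSmall.E6cN
import Cfsg.Agent.Lib.Helper88.SUSmall.E6cB3

set_option autoImplicit false

namespace Cfsg.Agent.Lib.Helper13.SUSmall

open Cfsg Cfsg.Geo Matrix Cfsg.Agent.Lib.Helper5.SUAsch Cfsg.Agent.Lib.Helper13
open scoped MatrixGroups

variable {F : Type*} [Field F] [Fintype F]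

theorem exists_omega4 (hF : Fintype.card F = 2 ^ 2) : ∃ ω : F, ω ^ 2 + ω + 1 = 0 := by
  classical
  have hc : 2 < Fintype.card F := by rw [hF]; norm_num
  obtain ⟨x, hx⟩ : ∃ x : F, x ∉ ({0, 1} : Finset F) := by
    by_contra hcon
    push Not at hcon
    have : Fintype.card F ≤ ({0, 1} : Finset F).card := by
      rw [← Finset.card_univ]
      exact Finset.card_le_card (fun x _ => hcon x)
    have h2 : ({0, 1} : Finset F).card ≤ 2 := Finset.card_le_two
    omega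
  simp only [Finset.mem_insert, Finset.mem_singleton, not_or] at hx
  have h3 : x ^ 3 = 1 := by
    have := FiniteField.pow_card_sub_one_eq_one x hx.1
    rwa [hF] at this
  refine ⟨x, ?_⟩
  have h4 : (x - 1) * (x ^ 2 + x + 1) = 0 := by linear_combination h3
  rcases mul_eq_zero.1 h4 with h | h
  · exact absurd (sub_eq_zero.1 h) hx.2
  · exact h

omit [Fintype F] in
theorem B6_transpose (ω : F) : (B6 ω)ᵀ = B6 ω := by
  ext i j
  fin_cases i <;> fin_cases j <;> simp [B6]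

omit [Fintype F] in
theorem B6_diag (ω : F) (i : Fin 6) : B6 ω i i = 0 := by
  fin_cases i <;> simp [B6]

omit [Fintype F] in
theorem B6_map_mul (ω : F) (hω : ω ^ 2 + ω + 1 = 0) :
    (B6 ω).map (fun x => x ^ 2) * B6 ω = 1 := by
  have h3 : ω ^ 2 * ω = 1 := by linear_combination (ω - 1) * hω
  ext i j
  fin_cases i <;> fin_cases j <;> simp [B6, Matrix.mul_apply, Fin.sum_univ_six, h3]

/-- E6c -/
theorem field6_q2 (hF : Fintype.card F = 2 ^ 2)
    (K : Subalgebra F (Matrix (Fin 6) (Fin 6) F)) (hK : IsFieldSubalgebra 3 K)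
    (hadj : IsAdjointClosedFor (hermForm 6 F 2) K) :
    ∃ (F₀ : Subfield F) (P : GL (Fin 6) F) (ζ : F), Fintype.card F = Nat.card F₀ ^ 2 ∧
      ζ ≠ 0 ∧ ζ + ζ ^ 2 = 0 ∧ IsFormRationalStructure (hermForm 6 F 2) F₀ ζ P ∧
      (∀ u : Fin 6 → F, (∀ i, u i ∈ F₀) →
        hermForm 6 F 2 ((P : Matrix (Fin 6) (Fin 6) F) *ᵥ u)
          ((P : Matrix (Fin 6) (Fin 6) F) *ᵥ u) = 0) ∧
      subalgebraNormalizer K ⊓ SUg 6 F 2 ≤ subfieldSubgroup F₀ P := by
  classical
  obtain ⟨ω, hω⟩ := exists_omega4 hF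
  obtain ⟨l, hlU, hlK, hl3, hnorm⟩ := Cfsg.Agent.Lib.Helper60.SUSmall.e6c_lambda hF ω hω K hK hadj
  obtain ⟨T, hT, hlT⟩ := Cfsg.Agent.Lib.Helper5.SUSmall.E6cN.e6c_normal hF ω hω l hlU hl3
  have h2 : (2 : F) = 0 := by
    have h4 : ((Fintype.card F : ℕ) : F) = 0 := Nat.cast_card_eq_zero F
    rw [hF] at h4
    have h5 : (2 : F) * 2 = 0 := by
      have : ((2 ^ 2 : ℕ) : F) = 2 * 2 := by norm_num
      rw [← this]; exact h4
    exact mul_self_eq_zero.1 h5
  have hneg : ∀ X : Matrix (Fin 6) (Fin 6) F, -X = X := by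
    intro X
    ext i j
    have : X i j + X i j = 0 := by linear_combination (X i j) * h2
    simp only [Matrix.neg_apply]
    linear_combination -this
  have hinv : Function.Involutive (frobQ hF) := fun x => by simp [pow_q_pow_q hF]
  let σ : F ≃+* F := RingEquiv.ofBijective (frobQ hF) hinv.bijective
  have hσ : ∀ x, σ x = x ^ 2 := fun x => rfl
  have hfun : (fun x : F => x ^ 2) = ⇑σ := by funext x; exact (hσ x).symm
  set Tm : Matrix (Fin 6) (Fin 6) F := (T : Matrix (Fin 6) (Fin 6) F) with hTm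
  set Ti : Matrix (Fin 6) (Fin 6) F := ((T⁻¹ : GL (Fin 6) F) : Matrix (Fin 6) (Fin 6) F) with hTi
  have hTiT : Ti * Tm = 1 := by
    rw [hTi, hTm, ← Units.val_mul, inv_mul_cancel, Units.val_one]
  have hTTi : Tm * Ti = 1 := by
    rw [hTi, hTm, ← Units.val_mul, mul_inv_cancel, Units.val_one]
  have hTU : Tmᵀ * Tm.map σ = 1 := (Cfsg.Agent.Lib.Helper43.PA.mem_GU_iff_matrix σ hσ T).1 hT
  have hTiσ : Ti.map σ = Tmᵀ := by
    have h1 : Ti.map σ * Tm.map σ = 1 := by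
      rw [← Matrix.map_mul, hTiT]
      simp
    have h3 : Tm.map σ * Tmᵀ = 1 := mul_eq_one_comm.1 hTU
    calc Ti.map σ = Ti.map σ * (Tm.map σ * Tmᵀ) := by rw [h3, mul_one]
      _ = Tmᵀ := by rw [← mul_assoc, h1, one_mul]
  set B : Matrix (Fin 6) (Fin 6) F := Tiᵀ * B6 ω * Ti with hBdef
  have hB6 : (B6 ω).map σ * B6 ω = 1 := by rw [← hfun]; exact B6_map_mul ω hω
  have hBB : B.map (fun x => x ^ 2) * B = (1 : F) • 1 := by
    rw [hfun, one_smul, hBdef, Matrix.map_mul, Matrix.map_mul, Matrix.transpose_map, hTiσ,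
      Matrix.transpose_transpose]
    calc Tm * (B6 ω).map σ * Tmᵀ * (Tiᵀ * B6 ω * Ti)
        = Tm * (B6 ω).map σ * (Tmᵀ * Tiᵀ) * B6 ω * Ti := by simp only [mul_assoc]
      _ = Tm * ((B6 ω).map σ * B6 ω) * Ti := by
          rw [← Matrix.transpose_mul, hTiT, Matrix.transpose_one, mul_one]
          simp only [mul_assoc]
      _ = 1 := by rw [hB6, mul_one, hTTi]
  have hBunit : IsUnit B.det := by
    have h1 := congrArg Matrix.det hBB
    rw [Matrix.det_mul, one_smul, Matrix.det_one] at h1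
    exact IsUnit.of_mul_eq_one _ (by rw [mul_comm]; exact h1)
  have hBs : Bᵀ = -B := by
    rw [hneg, hBdef, Matrix.transpose_mul, Matrix.transpose_mul, Matrix.transpose_transpose,
      B6_transpose, mul_assoc]
  have hBd : ∀ i, B i i = 0 := by
    intro i
    have h1 := Cfsg.Agent.Lib.Helper62.AschU.alt_of_skew (B6 ω)
      (by rw [hneg, B6_transpose]) (B6_diag ω) (fun k => Ti k i)
    have h3 : B i i = (fun k => Ti k i) ⬝ᵥ (B6 ω *ᵥ (fun k => Ti k i)) := by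
      rw [hBdef, mul_assoc, Matrix.mul_apply]
      simp only [dotProduct, Matrix.transpose_apply, Matrix.mulVec, Matrix.mul_apply]
    rw [h3, h1]
  refine Cfsg.Agent.Lib.Helper62.SUSmall.sp_struct_of_gram hF (by norm_num)
    (inf_le_right.trans inf_le_left) B hBunit hBs hBd 1 hBB ?_
  intro g hg
  obtain ⟨c, hc, hgl⟩ := hnorm g (Subgroup.mem_inf.1 hg).1
  have hTl : Ti * (l : Matrix (Fin 6) (Fin 6) F) * Tm = lam6 ω := by
    rw [mul_assoc, hlT, ← mul_assoc, hTiT, one_mul]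
  have hh : T⁻¹ * g * T ∈ SUg 6 F 2 := by
    refine Subgroup.mem_inf.2 ⟨(GU 6 F 2).mul_mem ((GU 6 F 2).mul_mem ((GU 6 F 2).inv_mem hT)
      (Subgroup.mem_inf.1 (Subgroup.mem_inf.1 hg).2).1) hT, ?_⟩
    rw [mem_specialLinear_iff']
    have hgd : (g : Matrix (Fin 6) (Fin 6) F).det = 1 := (mem_specialLinear_iff' g).1 (Subgroup.mem_inf.1 (Subgroup.mem_inf.1 hg).2).2
    rw [Units.val_mul, Units.val_mul, Matrix.det_mul, Matrix.det_mul, hgd, mul_one, ← Matrix.det_mul,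
      ← Units.val_mul, inv_mul_cancel, Units.val_one, Matrix.det_one]
  have hval : ((T⁻¹ * g * T : GL (Fin 6) F) : Matrix (Fin 6) (Fin 6) F) =
      Ti * (g : Matrix (Fin 6) (Fin 6) F) * Tm := by
    rw [Units.val_mul, Units.val_mul]
  obtain ⟨d, hd⟩ := Cfsg.Agent.Lib.Helper88.SUSmall.e6c_concrete hF ω hω (T⁻¹ * g * T) hh c hc (by
    rw [hval, ← hTl]
    calc Ti * (g : Matrix (Fin 6) (Fin 6) F) * Tm * (Ti * (l : Matrix (Fin 6) (Fin 6) F) * Tm)
        = Ti * (g : Matrix (Fin 6) (Fin 6) F) * (Tm * Ti) * (l : Matrix (Fin 6) (Fin 6) F) * Tm := by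
          simp only [mul_assoc]
      _ = Ti * ((g : Matrix (Fin 6) (Fin 6) F) * (l : Matrix (Fin 6) (Fin 6) F)) * Tm := by
          rw [hTTi, mul_one]; simp only [mul_assoc]
      _ = c • (Ti * (l : Matrix (Fin 6) (Fin 6) F) * (Tm * Ti) * (g : Matrix (Fin 6) (Fin 6) F) * Tm) := by
          rw [hgl, hTTi, mul_one, Matrix.mul_smul, Matrix.smul_mul]; simp only [mul_assoc]
      _ = c • (Ti * (l : Matrix (Fin 6) (Fin 6) F) * Tm * (Ti * (g : Matrix (Fin 6) (Fin 6) F) * Tm)) := by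
          simp only [mul_assoc])
  refine ⟨d, ?_⟩
  rw [hval] at hd
  have e1 : (g : Matrix (Fin 6) (Fin 6) F) = Tm * (Ti * (g : Matrix (Fin 6) (Fin 6) F) * Tm) * Ti := by
    calc (g : Matrix (Fin 6) (Fin 6) F) = (Tm * Ti) * (g : Matrix (Fin 6) (Fin 6) F) * (Tm * Ti) := by
          rw [hTTi, one_mul, mul_one]
      _ = _ := by simp only [mul_assoc]
  set h : Matrix (Fin 6) (Fin 6) F := Ti * (g : Matrix (Fin 6) (Fin 6) F) * Tm with hh'
  rw [e1, hBdef]
  calc (Tm * h * Ti)ᵀ * (Tiᵀ * B6 ω * Ti) * (Tm * h * Ti)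
      = Tiᵀ * hᵀ * (Ti * Tm)ᵀ * B6 ω * (Ti * Tm) * h * Ti := by
        simp only [Matrix.transpose_mul, mul_assoc]
    _ = Tiᵀ * (hᵀ * B6 ω * h) * Ti := by
        rw [hTiT, Matrix.transpose_one, mul_one, mul_one]; simp only [mul_assoc]
    _ = d • (Tiᵀ * B6 ω * Ti) := by
        rw [hd, Matrix.mul_smul, Matrix.smul_mul]

end Cfsg.Agent.Lib.Helper13.SUSmall
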